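import Cfsg.Agent.Lib.CosetCert.D.OnJ1.Dg.Ok
import Cfsg.Agent.Lib.CosetCert.D.OnJ1.Final
import Cfsg.Agent.Lib.TC.Iso
import Cfsg.Agent.Lib.TC.D.ONChain.Main
import Cfsg.Agent.Lib.CosetCert.SubIso

namespace Cfsg.Agent.Lib.CosetCert.D.OnJ1.Sub

open Cfsg.Agent.Lib.CosetCert Cfsg.Agent.Lib.TC.Core Cfsg.Agent.Lib.TC.Enc Cfsg.Agent.Lib.TC.Pres Cfsg.Agent.Lib.TC.Perm Cfsg.Agent.Lib.TC.Main

set_option maxRecDepth 100000

open Cfsg.Agent.Lib.TC.Chain Cfsg.Agent.Lib.TC.Iso Cfsg.Agent.Lib.TC.G.ON Cfsg.Agent.Lib.TC.Chain.PermLev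
open Cfsg.Agent.Lib.CosetCert.D.OnJ1.Tbl

/-- The words of the letters in the presented group. -/
def W : List (List ℕ) := [[0,2,3,1,5,4,6,0,2,1,6,3,2,0,7,2,0,3,0,5,1,7,2,7,4,5,6,4,2,7,5,3,5,1,2,0,3,4,0,2,6,7,3,6,1,2,7,6,2,1,3,6,2,4,2,3,4,3,1,6,5,3,6,5,2,5,4,5,7,0,5,3,2,0,5,6,2,7,6,4,1,1,7,6,2,6,7,0,0,4,6,7,2,6,5,1,2,3,5,1,7,5,4,5,2,5,6,3,5,6,0,3,4,3,2,4,2,6,3,0,2,6,7,2,0,6,3,7,6,2,1,4,3,1,2,0,5,3,5,7,2,4,6,5,4,7,2,7,0,5,1,3,1,2,7,1,2,3,6,0,2,1,6,4,5,0,3,2,1],[2,3],[3,2]]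

/-- The word of a letter in the presented group. -/
def w (c : ℕ) : List ℕ := W.getD c []

/-- The relators as words in the presented group. -/
def chk : List (List ℕ) := (Cfsg.Agent.Lib.CosetCert.D.OnJ1.Dg.Tab.rels.map fun l => l.flatMap w) ++ [w 0 ++ w 0, w 1 ++ w 2, w 2 ++ w 1]

theorem hchkk : ∀ l ∈ chk, ∀ z ∈ l, z < K.k := by decide +kernel

/-- The base. -/
def base : List ℕ := allBase [0] Cfsg.Agent.Lib.TC.D.ONChain.Lev.levels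

theorem hbase : ∀ l ∈ chk, fixAll Cfsg.Agent.Lib.TC.D.ONa.Tab.pt base l = true := by decide +kernel

theorem hone {l : List ℕ} (hl : l ∈ chk) : prodA (K.E Rel) l = 1 :=
  word_spec Cfsg.Agent.Lib.TC.D.ONa.Ok.ok 460815505920 Cfsg.Agent.Lib.TC.D.ONChain.Main.simple_card.2 (by norm_num) Cfsg.Agent.Lib.TC.D.ONChain.Lev.levels
    Cfsg.Agent.Lib.TC.D.ONChain.Lev.hlev (by decide +kernel) l (hchkk l hl) (hbase l hl)

/-- The letters in the presented group. -/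
noncomputable def g (c : ℕ) : PresentedGroup Rel := prodA (K.E Rel) (w c)

theorem hrelG : ∀ l ∈ Cfsg.Agent.Lib.CosetCert.D.OnJ1.Dg.Tab.rels, prodA g l = 1 := by
  intro l hl
  have hg : g = fun c => prodA (K.E Rel) (w c) := rfl
  rw [hg, prodA_flatMap]
  exact hone (List.mem_append_left _ (List.mem_map.2 ⟨l, hl, rfl⟩))

theorem hinvG : ∀ c, c < L0.k → g (L0.inv c) = (g c)⁻¹ := by
  have h1 : g 0 * g 0 = 1 := by
    have := hone (l := w 0 ++ w 0) (by decide +kernel)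
    rwa [prodA_append] at this
  have h2 : g 2 * g 1 = 1 := by
    have := hone (l := w 1 ++ w 2) (by decide +kernel)
    rwa [prodA_append] at this
  have h3 : g 1 * g 2 = 1 := by
    have := hone (l := w 2 ++ w 1) (by decide +kernel)
    rwa [prodA_append] at this
  intro c hc
  have hc' : c < 3 := hc
  apply eq_inv_of_mul_eq_one_left
  interval_cases c
  · exact h1
  · exact h2
  · exact h3

theorem hne : ∃ c, c < L0.k ∧ g c ≠ 1 :=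
  ⟨0, by decide, word_ne_one Cfsg.Agent.Lib.TC.D.ONa.Ok.ok (w 0) (by decide +kernel) 12345 (by decide +kernel) (by decide +kernel)⟩

instance : IsSimpleGroup L0.G := Cfsg.Agent.Lib.CosetCert.D.OnJ1.Final.simple

theorem exists_iso : Nonempty (Subgroup.closure (g '' {c | c < L0.k}) ≃* L0.G) :=
  closure_equiv_of_relators g L0 Cfsg.Agent.Lib.CosetCert.D.OnJ1.Dg.Tab.cert rfl Cfsg.Agent.Lib.CosetCert.D.OnJ1.Dg.Tab.rels [0,1,0,2] 19 Cfsg.Agent.Lib.CosetCert.D.OnJ1.Dg.Tab.witT.get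
    hinvG Cfsg.Agent.Lib.CosetCert.D.OnJ1.Dg.Ok.hrelk hrelG Cfsg.Agent.Lib.CosetCert.D.OnJ1.Dg.Ok.hrelL Cfsg.Agent.Lib.CosetCert.D.OnJ1.Dg.Ok.huk Cfsg.Agent.Lib.CosetCert.D.OnJ1.Dg.Ok.hu Cfsg.Agent.Lib.CosetCert.D.OnJ1.Dg.Ok.h1 Cfsg.Agent.Lib.CosetCert.D.OnJ1.Dg.Ok.h2 Cfsg.Agent.Lib.CosetCert.D.OnJ1.Dg.Ok.hchecked
    (by rw [Cfsg.Agent.Lib.CosetCert.D.OnJ1.Dg.Ok.hcount, Cfsg.Agent.Lib.CosetCert.D.OnJ1.Final.card0]) (by norm_num) hne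

theorem simple_card : IsSimpleGroup (Subgroup.closure (g '' {c | c < L0.k})) ∧ Nat.card (Subgroup.closure (g '' {c | c < L0.k})) = 175560 := by
  obtain ⟨e⟩ := exists_iso
  exact ⟨e.isSimpleGroup_congr.2 inferInstance, by rw [Nat.card_congr e.toEquiv, Cfsg.Agent.Lib.CosetCert.D.OnJ1.Final.card0]⟩

end Cfsg.Agent.Lib.CosetCert.D.OnJ1.Sub
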